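import Cfsg.Agent.Lib.Spor.Cent4
import Cfsg.Agent.Lib.Spor.Th.Top
import Cfsg.Agent.Lib.Spor.ThB.Lift
import Cfsg.Agent.Lib.Spor.ThC.Lift
import Cfsg.Prelude.Def_Sporadic
import Cfsg.Prelude.Def_Exceptional

set_option autoImplicit false
set_option maxRecDepth 100000

namespace Cfsg.Agent.Spor.Th
open Cfsg.Agent.PG Cfsg.Agent.Spor Cfsg.Agent.Spor.ThA Subgroup Cfsg.Agent.Lib.PGroup

/-- the small claims -/
noncomputable def smL : List Claim :=
  [(powP [gw 9] 19, []), (powP [gw 10] 31, []), (powP (gw 9 :: uw) (2 * 4 + 1), []), (uw ++ uw, []),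
    (yw, conjProd uw hw), (powP [gw 11] 5, []), (powP [gw 12] 5, []), (powP [gw 13] 5, []),
    ([gw 11, gw 13], [gw 13, gw 11]), ([gw 12, gw 13], [gw 13, gw 12]),
    ([gw 12, gw 11], [gw 13, gw 11, gw 12]), ([gw 24], czz), (powP [gw 50] 3, [])]

/-- the claims about the letters -/
structure Cl {Γ : Type} [Group Γ] (γ : ℕ → Γ) : Prop where
  lift0 : Lift A γ 65
  clT : ∀ c ∈ dcClaims 64 66 cjT repsT, HoldsG γ c
  mxc : ∀ c ∈ mxClaims mxT, HoldsG γ c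
  gn : ∀ c ∈ genClaims gn_g, HoldsG γ c
  nzl : ∀ c ∈ nzClaims 50 40 nzl_r, HoldsG γ c
  gk : ∀ c ∈ genClaims gk_g, HoldsG γ c
  pc3p : ∀ c ∈ pcPos 3 14 pc3, HoldsG γ c
  pc3n : ∀ c ∈ (pcNeg 14 pc3).map Prod.fst, ¬ HoldsG γ c
  pc5p : ∀ c ∈ pcPos 3 51 pc5, HoldsG γ c
  pc5n : ∀ c ∈ (pcNeg 51 pc5).map Prod.fst, ¬ HoldsG γ c
  es : ∀ c ∈ esClaims 24 4, HoldsG γ c
  nzq : ∀ c ∈ nzClaims 33 24 nzq_r, HoldsG γ c
  md6 : ∀ c ∈ modClaims ThB.cl6_l mdw6, HoldsG γ c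
  md5 : ∀ c ∈ modClaims ThB.cl5_l mdw5, HoldsG γ c
  md4 : ∀ c ∈ modClaims ThB.cl4_l mdw4, HoldsG γ c
  md3 : ∀ c ∈ modClaims ThB.cl3_l mdw3, HoldsG γ c
  md2 : ∀ c ∈ modClaims ThB.cl2_l mdw2, HoldsG γ c
  md1 : ∀ c ∈ modClaims ThB.cl1_l mdw1, HoldsG γ c
  md0 : ∀ c ∈ modClaims ThB.cl0_l mdw0, HoldsG γ c
  mb9 : ∀ c ∈ modClaims ThC.cl9_l mbw9, HoldsG γ c
  mb8 : ∀ c ∈ modClaims ThC.cl8_l mbw8, HoldsG γ c
  mb7 : ∀ c ∈ modClaims ThC.cl7_l mbw7, HoldsG γ c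
  mb6 : ∀ c ∈ modClaims ThC.cl6_l mbw6, HoldsG γ c
  mb5 : ∀ c ∈ modClaims ThC.cl5_l mbw5, HoldsG γ c
  mb4 : ∀ c ∈ modClaims ThC.cl4_l mbw4, HoldsG γ c
  mb3 : ∀ c ∈ modClaims ThC.cl3_l mbw3, HoldsG γ c
  mb2 : ∀ c ∈ modClaims ThC.cl2_l mbw2, HoldsG γ c
  mb1 : ∀ c ∈ modClaims ThC.cl1_l mbw1, HoldsG γ c
  mb0 : ∀ c ∈ modClaims ThC.cl0_l mbw0, HoldsG γ c
  cmz : ∀ c ∈ cmLet [gw 24] 24 40, HoldsG γ c
  ceqz : ∀ c ∈ eqClaims cgz cwz, HoldsG γ c
  cgoodz : ∀ c ∈ goodClaims (repsT.zip csz), HoldsG γ c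
  cbadz : ∀ c ∈ ((badClaims czz cbz (repsT.zip csz)).zip cbadz_p).map Prod.fst, ¬ HoldsG γ c
  sm : ∀ c ∈ smL, HoldsG γ c
  ng : ∀ c ∈ (ng_l).map Prod.fst, ¬ HoldsG γ c

variable {Γ : Type} [Group Γ] {γ : ℕ → Γ}

theorem Cl.top (h : Cl γ) : TopOK A γ 64 66 0 OT cjT repsT := ⟨stab0, shT, rok, h.clT⟩

theorem Cl.inG (h : Cl γ) : ∀ j, 0 ≤ j → j < 51 → γ j ∈ KG γ 64 :=
  mem_of_genRun (a := 64) (b := 75) (fun _ h _ => mem_KG γ h) (by decide +kernel) h.gn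

theorem Cl.le (h : Cl γ) {a b : ℕ} (hb : b ≤ 51) : KW γ a b ≤ KG γ 64 :=
  KW_le fun j _ _ => h.inG j (Nat.zero_le _) (by omega)

theorem Cl.pw (h : Cl γ) {j p : ℕ} (hj : j < 128) (hm : (powP [gw j] p, []) ∈ smL) :
    γ j ^ p = 1 := by
  simpa [HoldsG, ppG_powP, spG_gw γ hj] using h.sm _ hm

theorem Cl.ne (h : Cl γ) {j : ℕ} (hj : j < 128) (hm : ([gw j], []) ∈ ng_l.map Prod.fst) :
    γ j ≠ 1 := by
  simpa [HoldsG, spG_gw γ hj] using h.ng _ hm

theorem Cl.d4 (h : Cl γ) : IsSimpleGroup (KW γ 40 50) ∧ Nat.card (KW γ 40 50) = 211341312 := by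
  have := ThC.simple0
  have hN := nz_zero γ 40 50
  obtain ⟨e⟩ := iso_of_win (by norm_num) (ThC.liftAll (γ := barG γ (KW γ 0 0) 40 50)
    (fun j hj => barG_of_le γ _ hj) (holds_mod hN mbok9 h.mb9) (holds_mod hN mbok8 h.mb8)
    (holds_mod hN mbok7 h.mb7) (holds_mod hN mbok6 h.mb6) (holds_mod hN mbok5 h.mb5)
    (holds_mod hN mbok4 h.mb4) (holds_mod hN mbok3 h.mb3) (holds_mod hN mbok2 h.mb2)
    (holds_mod hN mbok1 h.mb1) (holds_mod hN mbok0 h.mb0)) (h.ne (by norm_num) (by decide +kernel))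
  exact simple_card_congr e.symm ⟨this, ThC.card0⟩

theorem alt : Nonempty (K ThB.A 33 ≃* alternatingGroup (Fin 9)) :=
  iso_alt' (by norm_num) (fun σ hσ i => by
    simpa [mem_bset_ivl] using K_bset ThB.hA (ThB.hlen ▸ by norm_num) (t := 33)
      (v := ivl 0 9) (by decide +kernel) σ hσ i)
    (by apply ThB.fixTriv0 <;> simp) (by rw [ThB.card0]; decide +kernel)

variable [Finite Γ]

theorem Cl.es' (h : Cl γ) : IsES 2 (γ 24) (KW γ 24 33) ∧ Nat.card (KW γ 24 33) = 2 * 4 ^ 4 :=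
  es_of_claims (a := 24) (k := 4) (by norm_num) (h.ne (by norm_num) (by decide +kernel)) h.es

theorem Cl.ext (h : Cl γ) : ∃ ψ : KW γ 24 40 →* alternatingGroup (Fin 9),
    Function.Surjective ψ ∧ ψ.ker = (KW γ 24 33).subgroupOf _ := by
  have hN := nz_of_claims nzqok h.nzq
  obtain ⟨φ, hφ⟩ := ThB.liftAll (γ := barG γ (KW γ 24 33) 33 40) (fun j hj => barG_of_le γ _ hj)
    (holds_mod hN mdok6 h.md6) (holds_mod hN mdok5 h.md5) (holds_mod hN mdok4 h.md4)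
    (holds_mod hN mdok3 h.md3) (holds_mod hN mdok2 h.md2) (holds_mod hN mdok1 h.md1)
    (holds_mod hN mdok0 h.md0)
  obtain ⟨e⟩ := alt
  have : IsSimpleGroup (alternatingGroup (Fin 9)) := alternatingGroup.isSimpleGroup (by simp)
  have := e.isSimpleGroup
  have hx := ext_of_lift hN hφ (inj_of_simple ⟨⟨_, gp_mem_K _ (show 33 ≤ 39 by norm_num)⟩, by
    rw [hφ _ (by norm_num)]
    refine barG_ne_one hN (by norm_num) (by norm_num) fun hm => ?_
    obtain ⟨k, hk⟩ := h.es'.1.pow _ hm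
    have h1 : γ 24 ^ 2 = 1 := h.es'.1.ord ▸ pow_orderOf_eq_one _
    have h2 := h.ng ([gw 39, gw 39, gw 39, gw 39], []) (by decide +kernel)
    apply h2
    have h3 : (γ 39 ^ 2) ^ 2 = 1 := by
      rw [← hk, ← zpow_natCast, ← zpow_mul, mul_comm, zpow_mul, zpow_natCast, h1, one_zpow]
    simpa [HoldsG, spG_gw, sq, mul_assoc] using h3⟩)
  rw [KW_sup γ (by norm_num) (by norm_num)] at hx
  obtain ⟨ψ, hs, hk⟩ := hx
  exact ⟨e.toMonoidHom.comp ψ, e.surjective.comp hs, by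
    rw [← MonoidHom.comap_ker, (MonoidHom.ker_eq_bot_iff _).2 e.injective, ← hk]; rfl⟩

theorem Cl.card (h : Cl γ) : Nat.card (KG γ 64) = 90745943887872000 := by
  obtain ⟨φ, hφ⟩ := h.lift0
  obtain ⟨hf, hle⟩ := top_card_le hA hφ h.top (by decide +kernel) lbr card0
  obtain ⟨ψ, hs, hk⟩ := h.ext
  have d1 := card_dvd_of_le (h.le (a := 24) (b := 40) (by norm_num))
  rw [card_eq_card_quotient_mul_card_subgroup ψ.ker,
    Nat.card_congr (QuotientGroup.quotientKerEquivOfSurjective ψ hs).toEquiv, hk,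
    Nat.card_congr (subgroupOfEquivOfLe (KW_le fun j a b => mem_KW γ a (by omega))).toEquiv,
    h.es'.2, ← Nat.card_congr alt.some.toEquiv, ThB.card0] at d1
  have d2 := card_dvd_of_le (h.le (a := 40) (b := 50) (by norm_num))
  rw [h.d4.2] at d2
  have d3 := pc_dvd (p := 3) (by norm_num) (fun j _ hj => h.inG j (Nat.zero_le _)
    (lt_trans hj (by decide))) pc3ok h.pc3p h.pc3n
  have d4 := cube_dvd_card (p := 5) (by norm_num) (h.inG 11 (by norm_num) (by norm_num))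
    (h.inG 12 (by norm_num) (by norm_num)) (c := γ 13) (h.pw (by norm_num) (by simp [smL]))
    (h.pw (by norm_num) (by simp [smL])) (h.pw (by norm_num) (by simp [smL]))
    (h.ne (by norm_num) (by decide +kernel))
    (by simpa [HoldsG, spG_gw] using h.sm ([gw 11, gw 13], [gw 13, gw 11]) (by simp [smL]))
    (by simpa [HoldsG, spG_gw] using h.sm ([gw 12, gw 13], [gw 13, gw 12]) (by simp [smL]))
    (by simpa [HoldsG, spG_gw, mul_assoc] using
      h.sm ([gw 12, gw 11], [gw 13, gw 11, gw 12]) (by simp [smL]))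
  have d5 := prime_dvd_card (p := 19) (by norm_num) (h.inG 9 (by norm_num) (by norm_num))
    (h.pw (by norm_num) (by simp [smL])) (h.ne (by norm_num) (by decide +kernel))
  have d6 := prime_dvd_card (p := 31) (by norm_num) (h.inG 10 (by norm_num) (by norm_num))
    (h.pw (by norm_num) (by simp [smL])) (h.ne (by norm_num) (by decide +kernel))
  have d := Nat.lcm_dvd (Nat.lcm_dvd (Nat.lcm_dvd (Nat.lcm_dvd (Nat.lcm_dvd d1 d2) d3) d4) d5) d6
  exact le_antisymm (hle.trans (by decide +kernel))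
    (le_trans (by decide +kernel) (Nat.le_of_dvd Nat.card_pos d))

theorem Cl.inj (h : Cl γ) {φ : K A 65 →* Γ} (hφ : IsLift A γ 65 φ) : Function.Injective φ :=
  top_inj hA hφ h.top (by decide +kernel) lbr card0 (h.card.trans (by decide +kernel))

theorem Cl.isTh (h : Cl γ) : IsTh (KG γ 64) := by
  obtain ⟨φ, hφ⟩ := h.lift0
  obtain ⟨e⟩ := iso_of_lift hφ (h.inj hφ)
  have hc : Nat.card (KG γ 65) = 319979520 := by rw [← Nat.card_congr e.toEquiv, card0]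
  have hle' : KG γ 65 ≤ KG γ 64 := KG_mono γ (by norm_num)
  have y1 : γ 9 ^ 19 = 1 := h.pw (by norm_num) (by simp [smL])
  have y2 : γ 9 ≠ 1 := h.ne (by norm_num) (by decide +kernel)
  have u1 : (γ 9 * Spor.ppG γ uw) ^ (2 * 4 + 1) = 1 := by
    simpa [HoldsG, ppG_powP, spG_gw] using h.sm (powP (gw 9 :: uw) (2 * 4 + 1), []) (by simp [smL])
  have u2 : Spor.ppG γ uw * Spor.ppG γ uw = 1 := by
    simpa [HoldsG, ppG_append] using h.sm (uw ++ uw, []) (by simp [smL])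
  have u3 : Spor.ppG γ uw ∈ KG γ 65 := ppG_mem (by decide +kernel)
  have u4 : Spor.ppG γ yw = Spor.ppG γ (conjProd uw hw) := h.sm (yw, conjProd uw hw) (by simp [smL])
  have hs := top_stab_card hA hφ h.top (by decide +kernel) lbr card0 (by decide +kernel)
    (h.card.trans (by decide +kernel))
  have s : ∀ j m, j < 128 → (gw j, m) ∈ (repsT.zip lvsT).map (fun q => (2 * q.1.g, lvProd q.2)) →
      Nat.card (stabD φ (γ j)) = m := fun j m a b => by
    obtain ⟨q, hq, e⟩ := List.mem_map.1 b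
    obtain ⟨e1, e2⟩ := Prod.mk.inj e
    rw [← e2, ← hs _ hq, ← spG_gw γ a, ← e1, spG_even]
  refine ⟨simple_of_top hle' (top_max hA hφ h.top mxok h.mxc)
    (core_of_cop hφ (h.inj hφ) (h.inG 3 (by norm_num) (by norm_num))
      (h.inG 5 (by norm_num) (by norm_num)) (by
        rw [s 3 3 (by norm_num) (by decide +kernel), s 5 5 (by norm_num) (by decide +kernel)]
        norm_num)) (p := 19) (by norm_num)
    (by rw [hc]; norm_num) (h.inG 9 (by norm_num) (by norm_num)) y1 y2 fun M hM hy => ?_, h.card⟩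
  refine ncl_lift hφ (u := yw) (by decide +kernel) nclH (fun g hg => hM g (hle' hg)) ?_
  rw [u4]
  exact conjProdG_mem hM (mem_of_odd hM hy (hle' u3) u1 u2) fun u hu =>
    hle' (wpG_mem (allL_spec (p := wge 65) (by decide +kernel) u hu))

theorem Cl.cent (h : Cl γ) : ∃ z : KG γ 64, orderOf z = 2 ∧
    ∃ (Q : Subgroup (centralizer ({z} : Set (KG γ 64)))) (_ : Q.Normal), Nat.card Q = 2 ^ 9 ∧
      IsExtraspecial 2 Q ∧
      Nonempty (centralizer ({z} : Set (KG γ 64)) ⧸ Q ≃* alternatingGroup (Fin 9)) := by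
  have : Fact (Nat.Prime 2) := ⟨Nat.prime_two⟩
  obtain ⟨φ, hφ⟩ := h.lift0
  obtain ⟨ψ, hs, hk⟩ := h.ext
  obtain ⟨hes, hQ⟩ := h.es'
  have hz : γ 24 = Spor.ppG γ czz := by
    simpa [HoldsG, spG_gw] using h.sm ([gw 24], czz) (by simp [smL])
  have hm : ∀ j, (ivl 24 40).testBit j = true → γ j ∈ KW γ 24 40 := fun j hj =>
    mem_KW γ ((testBit_ivl _ _ _).1 hj).1 ((testBit_ivl _ _ _).1 hj).2
  have h1 : ∀ y ∈ KW γ 24 40, Commute y (Spor.ppG γ czz) := fun y hy => by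
    simpa [← hz, spG_gw, Commute, SemiconjBy] using comm_KW (by norm_num) h.cmz y hy
  have h2 := top_cent hA hφ h.top (centz.conj hA hφ (b := czz) (by decide +kernel) cfix) h1
    (centz.sub hφ (h.inj hφ) (mem_of_eqClaims hm (by decide +kernel) (by decide +kernel) h.ceqz))
    hm (centz.comm hφ) centz.closed (by decide +kernel) crkz
    (neg_zip (by decide +kernel) h.cbadz) h.cgoodz
  rw [← hz] at h1 h2
  obtain ⟨ι, χ, i1, i2, i3, i4, i5⟩ := cent_pack (h.inG 24 (by norm_num) (by norm_num))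
    (h.le (by norm_num)) h1 h2 hs hk
  have l2 : KW γ 24 33 ≤ ι.range := i2 ▸ KW_le fun j a b => mem_KW γ a (by omega)
  have c1 := (card_comap_of_le i1 l2).trans hQ
  have e1 := isES_comap i1 l2 (i3.symm ▸ hes)
  rw [← i5] at c1 e1
  exact ⟨_, (orderOf_injective _ (KG γ 64).subtype_injective _).symm.trans hes.ord,
    χ.ker, inferInstance, c1.trans (by norm_num),
    e1.isExtraspecial fun e => absurd (e1.eq_zpowers_iff.1 e) (by rw [c1]; norm_num),
    ⟨QuotientGroup.quotientKerEquivOfSurjective χ i4⟩⟩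

theorem Cl.sub (h : Cl γ) : ∃ K : Subgroup (KG γ 64), K.index = 143127000 ∧
    ∃ L : Subgroup (KG γ 64), L ≤ K ∧ Is3D4 L := by
  have : Fact (Nat.Prime 3) := ⟨Nat.prime_three⟩
  obtain ⟨a1, a2⟩ := h.d4
  have d := pc_dvd (G := KW γ 40 51) (p := 3) (by norm_num)
    (mem_of_genRun (a := 40) (b := 51) (fun _ => mem_KW γ) (by decide +kernel) h.gk)
    pc5ok h.pc5p h.pc5n
  have hc : Nat.card (KW γ 40 51) = 211341312 * 3 := by
    rw [KW_succ γ (by norm_num)] at d ⊢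
    rw [card_sup_zpowers (p := 3) (nz_of_claims nzlok h.nzl 50 le_rfl (by norm_num)) (fun hm => by
      rw [sup_eq_left.2 (zpowers_le_of_mem hm), a2] at d
      exact absurd d (by decide +kernel)) (by
      rw [h.pw (by norm_num) (by simp [smL])]; exact one_mem _), a2]
  obtain ⟨b1, b2⟩ := simple_card_congr
    (subgroupOfEquivOfLe (h.le (a := 40) (b := 50) (by norm_num))).symm ⟨a1, a2⟩
  exact ⟨(KW γ 40 51).subgroupOf _, index_of_card
    ((Nat.card_congr (subgroupOfEquivOfLe (h.le le_rfl)).toEquiv).trans hc)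
    (h.card.trans (by norm_num)), (KW γ 40 50).subgroupOf _,
    comap_mono (KW_le fun j a b => mem_KW γ a (by omega)),
    b1, 2, Nat.prime_two.isPrimePow, b2.trans (by norm_num)⟩

end Cfsg.Agent.Spor.Th
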