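import Cfsg.Agent.Lib.Spor.Th.Main
import Cfsg.Agent.Lib.Spor.Th.Fin

set_option autoImplicit false

namespace Cfsg.Agent.Spor.Th

theorem cl : Cl γ :=
  ⟨lift0, clT, mxc, gn, nzl, gk, pc3p, pc3n, pc5p, pc5n, es, nzq, md6, md5, md4, md3, md2, md1, md0, mb9, mb8, mb7, mb6, mb5, mb4, mb3, mb2, mb1, mb0, cmz, ceqz, cgoodz, cbadz, sm, ng⟩

instance : Finite (GL (Fin P.n) (ZMod P.p)) := inferInstanceAs (Finite (GL (Fin 248) (ZMod 3)))

end Cfsg.Agent.Spor.Th
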